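import Cfsg.Agent.H171.Odd.Cert

/-!
# A search tree for `H171.Odd.okCert` (helper152)

`tree T [] L = true` implies that `okS T σ` holds for every sublist `σ` of `L`; with a good order of `L` the tree
has less than 100 nodes, instead of `2 ^ 14` sublists.
-/

set_option autoImplicit false

namespace Cfsg.Agent.H152.Mem

open Cfsg.Agent.H171.Odd

theorem okS_iff {T σ : List (ℕ × ℕ)} :
    okS T σ = true ↔ (∀ x, x ∉ σ) ∨ (∃ s ∈ σ, ∀ t ∈ σ, (Nat.beq t.1 s.1 || inT T s.1 t.1) = true) ∨
      (∃ r ∈ σ, ∀ p ∈ σ, dm r.1 p = true) := by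
  unfold okS
  rw [Bool.or_eq_true, Bool.or_eq_true, List.isEmpty_iff, List.any_eq_true, List.any_eq_true,
    List.eq_nil_iff_forall_not_mem, or_assoc]
  simp only [List.all_eq_true]

/-- `σ`: the elements taken so far; second list: the elements not yet decided -/
def tree (T : List (ℕ × ℕ)) : List (ℕ × ℕ) → List (ℕ × ℕ) → Bool
  | σ, [] => okS T σ
  | σ, x :: rest =>
    (σ.any fun s => (σ.all fun t => Nat.beq t.1 s.1 || inT T s.1 t.1) &&
      ((x :: rest).all fun t => Nat.beq t.1 s.1 || inT T s.1 t.1)) ||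
    (σ.any fun r => (σ.all fun p => dm r.1 p) && ((x :: rest).all fun p => dm r.1 p)) ||
    (tree T (x :: σ) rest && tree T σ rest)

theorem tree_spec {T : List (ℕ × ℕ)} : ∀ {rest σ : List (ℕ × ℕ)}, tree T σ rest = true →
    ∀ {τ : List (ℕ × ℕ)}, τ.Sublist rest → ∀ {ρ : List (ℕ × ℕ)}, (∀ x, x ∈ ρ ↔ x ∈ σ ∨ x ∈ τ) → okS T ρ = true
  | [], σ, h, τ, hτ, ρ, hρ => by
    rw [List.sublist_nil] at hτ
    subst hτ
    have hm : ∀ x, x ∈ ρ ↔ x ∈ σ := fun x => by rw [hρ x]; simp
    unfold tree at h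
    rw [okS_iff] at h ⊢
    simpa only [hm] using h
  | x :: rest, σ, h, τ, hτ, ρ, hρ => by
    unfold tree at h
    rw [Bool.or_eq_true, Bool.or_eq_true, Bool.and_eq_true] at h
    rcases h with (h | h) | ⟨h1, h2⟩
    · rw [List.any_eq_true] at h
      obtain ⟨s, hs, h⟩ := h
      rw [Bool.and_eq_true, List.all_eq_true, List.all_eq_true] at h
      rw [okS_iff]
      refine Or.inr (Or.inl ⟨s, (hρ s).2 (Or.inl hs), fun t ht => ?_⟩)
      rcases (hρ t).1 ht with ht | ht
      · exact h.1 t ht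
      · exact h.2 t (hτ.subset ht)
    · rw [List.any_eq_true] at h
      obtain ⟨s, hs, h⟩ := h
      rw [Bool.and_eq_true, List.all_eq_true, List.all_eq_true] at h
      rw [okS_iff]
      refine Or.inr (Or.inr ⟨s, (hρ s).2 (Or.inl hs), fun t ht => ?_⟩)
      rcases (hρ t).1 ht with ht | ht
      · exact h.1 t ht
      · exact h.2 t (hτ.subset ht)
    · cases hτ with
      | cons _ hτ => exact tree_spec h2 hτ hρ
      | cons_cons _ hτ =>
        refine tree_spec h1 hτ fun y => ?_
        rw [hρ y, List.mem_cons, List.mem_cons]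
        tauto

theorem all_of_tree {T L : List (ℕ × ℕ)} (h : tree T [] L = true) : (L.sublists.all fun σ => okS T σ) = true := by
  rw [List.all_eq_true]
  intro σ hσ
  exact tree_spec h (List.mem_sublists.1 hσ) fun x => by simp

/-- the certificate from the three checks -/
theorem okCert_of_tree {N : ℕ} {L T : List (ℕ × ℕ)} (h1 : Nat.beq ((2 * (L.map Prod.fst).prod) ^ 64 % N) 0 = true)
    (h2 : (L.all fun x => !(Nat.beq (N % x.1 ^ (x.2 + 1)) 0) && Nat.beq (N % x.1) 0) = true)
    (h3 : tree T [] L = true) : okCert N L T = true := by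
  unfold okCert
  rw [h1, h2, all_of_tree h3]
  rfl

end Cfsg.Agent.H152.Mem
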